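-- Project FXSP (S5975): interface file (helper4).  Package statements only; no proofs here.
import Mathlib
import Cfsg.Prelude.Def_ClassicalGeometry
import Cfsg.Prelude.Def_GeometricClasses

set_option autoImplicit false
open scoped MatrixGroups
open scoped Matrix

namespace Cfsg.Agent.Lib.Helper4.FXSP

universe u

/-- the space `F^(2d)` -/
abbrev Vd (d : ℕ) (F : Type u) := Fin d ⊕ Fin d → F
/-- the `2d × 2d` matrices -/
abbrev Md (d : ℕ) (F : Type u) := Matrix (Fin d ⊕ Fin d) (Fin d ⊕ Fin d) F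

/-- Standing hypotheses of S5975 on the subalgebra `K`: a field of degree `k`, self-adjoint and
"alternating" for the standard symplectic form. -/
structure Adm {F : Type u} [Field F] (d k : ℕ) (K : Subalgebra F (Md d F)) : Prop where
  fld : Cfsg.Geo.IsFieldSubalgebra k K
  sa : Cfsg.Geo.IsSelfAdjointFor (Cfsg.sympForm d F) K
  alt : ∀ a ∈ K, ∀ v : Vd d F, Cfsg.sympForm d F (a *ᵥ v) v = 0

/-- `A(q,d) = |Sp_{2d}(q)|`. -/
def spOrd (q d : ℕ) : ℕ := q ^ (d ^ 2) * ∏ j ∈ Finset.range d, (q ^ (2 * (j + 1)) - 1)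

/-- A `K`-Darboux basis `e` of `F^(2d)`: every vector is uniquely `∑ j, c j *ᵥ e j` with `c j ∈ K`
(so `F^(2d)` is `K^(2m)`), and in these coordinates the form is `τ` of the standard symplectic form
over `K`, for an `F`-linear functional `τ` on `K`. -/
structure IsDarboux {F : Type u} [Field F] (d : ℕ) (K : Subalgebra F (Md d F)) (m : ℕ)
    (τ : ↥K →ₗ[F] F) (e : Fin m ⊕ Fin m → Vd d F) : Prop where
  bij : Function.Bijective (fun c : Fin m ⊕ Fin m → ↥K => ∑ j, (c j : Md d F) *ᵥ e j)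
  gram : ∀ c c' : Fin m ⊕ Fin m → ↥K,
    Cfsg.sympForm d F (∑ j, (c j : Md d F) *ᵥ e j) (∑ j, (c' j : Md d F) *ᵥ e j) =
      τ (∑ j : Fin m, (c (Sum.inr j) * c' (Sum.inl j) - c (Sum.inl j) * c' (Sum.inr j)))

/-! ### Invariants of elements of `N(K)` -/

/-- [KDIV] a `K`-invariant subspace has dimension divisible by `k`. -/
def PkgKDiv : Prop := ∀ {F : Type u} [Field F] [Fintype F] (d k : ℕ) (K : Subalgebra F (Md d F)),
  Cfsg.Geo.IsFieldSubalgebra k K → ∀ W : Submodule F (Vd d F),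
    (∀ a ∈ K, ∀ w ∈ W, a *ᵥ w ∈ W) → k ∣ Module.finrank F W

/-- [EVENW] a `K`-invariant subspace on which the form is non-degenerate has dimension divisible
by `2k`. -/
def PkgEvenW : Prop := ∀ {F : Type u} [Field F] [Fintype F] (d k : ℕ) (K : Subalgebra F (Md d F)),
  Adm d k K → ∀ W : Submodule F (Vd d F),
    (∀ a ∈ K, ∀ w ∈ W, a *ᵥ w ∈ W) →
    (∀ w ∈ W, (∀ u ∈ W, Cfsg.sympForm d F w u = 0) → w = 0) → 2 * k ∣ Module.finrank F W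

/-- [RANGE] for a symplectic `y` of order prime to the characteristic, the form is non-degenerate
on the range of `y - 1`. -/
def PkgRange : Prop := ∀ {F : Type u} [Field F] [Fintype F] (d : ℕ) (y : GL (Fin d ⊕ Fin d) F),
  y ∈ Cfsg.spGL d F → ∀ N : ℕ, (N : F) ≠ 0 → y ^ N = 1 →
    ∀ w ∈ LinearMap.range ((y : Md d F) - 1).mulVecLin,
      (∀ u ∈ LinearMap.range ((y : Md d F) - 1).mulVecLin, Cfsg.sympForm d F w u = 0) → w = 0

/-- [SEMI] an element of `N(K)` not centralizing `K` has a small fixed space: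
`k * dim ker (y - 1) ≤ 2d`. -/
def PkgSemi : Prop := ∀ {F : Type u} [Field F] [Fintype F] (d k : ℕ) (K : Subalgebra F (Md d F)),
  Cfsg.Geo.IsFieldSubalgebra k K → k.Prime → ∀ y : GL (Fin d ⊕ Fin d) F,
    y ∈ Cfsg.Geo.subalgebraNormalizer K →
    (∃ a ∈ K, (y : Md d F) * a ≠ a * (y : Md d F)) →
    k * (2 * d - ((y : Md d F) - 1).rank) ≤ 2 * d

/-- [AUT] an element of `N(K)` of prime order `r` not centralizing `K` has `r ∣ k`. -/
def PkgAut : Prop := ∀ {F : Type u} [Field F] [Fintype F] (d k : ℕ) (K : Subalgebra F (Md d F)),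
  Cfsg.Geo.IsFieldSubalgebra k K → ∀ r : ℕ, r.Prime → ∀ y : GL (Fin d ⊕ Fin d) F,
    y ∈ Cfsg.Geo.subalgebraNormalizer K → y ^ r = 1 →
    (∃ a ∈ K, (y : Md d F) * a ≠ a * (y : Md d F)) → r ∣ k

/-- [ORB] for `y` of prime order `r ≠ char`, `r ∣ q ^ rank (y - 1) - 1`. -/
def PkgOrb : Prop := ∀ {F : Type u} [Field F] [Fintype F] (d r : ℕ), r.Prime → (r : F) ≠ 0 →
  ∀ y : GL (Fin d ⊕ Fin d) F, y ^ r = 1 →
    r ∣ Fintype.card F ^ ((y : Md d F) - 1).rank - 1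

/-! ### Existence of elements of `Sp` -/

/-- [TRANSV] a transvection. -/
def PkgTransv : Prop := ∀ {F : Type u} [Field F] [Fintype F] (d p : ℕ) [Fact p.Prime] [CharP F p],
  1 ≤ d → ∃ t : GL (Fin d ⊕ Fin d) F, t ∈ Cfsg.spGL d F ∧ t ^ p = 1 ∧ ((t : Md d F) - 1).rank = 1

/-- [INVOL] an involution with 2-dimensional `(-1)`-eigenspace, odd characteristic. -/
def PkgInvol : Prop := ∀ {F : Type u} [Field F] [Fintype F] (d : ℕ), 1 ≤ d → (2 : F) ≠ 0 →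
  ∃ x : GL (Fin d ⊕ Fin d) F, x ∈ Cfsg.spGL d F ∧ x ^ 2 = 1 ∧ ((x : Md d F) - 1).rank = 2

/-- [EX] an element of prime order `r` supported on a `2n`-dimensional block, when
`r ∣ q^(2n) - 1`. -/
def PkgEx : Prop := ∀ {F : Type u} [Field F] [Fintype F] (d n r : ℕ), r.Prime → 1 ≤ n → n ≤ d →
  r ∣ Fintype.card F ^ (2 * n) - 1 →
  ∃ x : GL (Fin d ⊕ Fin d) F, x ∈ Cfsg.spGL d F ∧ x ^ r = 1 ∧ x ≠ 1 ∧
    ((x : Md d F) - 1).rank ≤ 2 * n

/-! ### Orders -/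

/-- [SPCARD] the order of `spGL d F`. -/
def PkgSpCard : Prop := ∀ {F : Type u} [Field F] [Fintype F] (d : ℕ),
  Nat.card ↥(Cfsg.spGL d F) = spOrd (Fintype.card F) d

/-- [VAL] if `r ∣ q^(2n) - 1` forces `k ∣ n`, then `|Sp_{2km}(q)|` and `|Sp_{2m}(q^k)|` have the
same `r`-part. -/
def PkgVal : Prop := ∀ (q k m r : ℕ), 2 ≤ q → r.Prime → ¬ r ∣ q → 1 ≤ k →
  (∀ n, 1 ≤ n → r ∣ q ^ (2 * n) - 1 → k ∣ n) →
  padicValNat r (spOrd q (k * m)) ≤ padicValNat r (spOrd (q ^ k) m)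

/-- [DARB] existence of a `K`-Darboux basis. -/
def PkgDarb : Prop := ∀ {F : Type u} [Field F] [Fintype F] (d k : ℕ) (K : Subalgebra F (Md d F)),
  Adm d k K → 1 ≤ d →
  ∃ (m : ℕ) (τ : ↥K →ₗ[F] F) (e : Fin m ⊕ Fin m → Vd d F), IsDarboux d K m τ e

/-- [EMB2] from a `K`-Darboux basis: `d = k m` and `|Sp_{2m}(q^k)|` divides `|N(K) ∩ Sp_{2d}(q)|`. -/
def PkgEmb2 : Prop := ∀ {F : Type u} [Field F] [Fintype F] (d k : ℕ) (K : Subalgebra F (Md d F)),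
  Adm d k K → 1 ≤ d →
  ∀ (m : ℕ) (τ : ↥K →ₗ[F] F) (e : Fin m ⊕ Fin m → Vd d F), IsDarboux d K m τ e →
    d = k * m ∧
    spOrd (Fintype.card F ^ k) m ∣ Nat.card ↥(Cfsg.Geo.subalgebraNormalizer K ⊓ Cfsg.spGL d F)

/-! ### The backward direction (`d = 2`, `k = 2`, `q` odd) -/

/-- [NFM] in `Sp_4(q)`, `q` odd, any two symplectic `x` with `x^2 = -1` are conjugate in `Sp`. -/
def PkgNFM : Prop := ∀ {F : Type u} [Field F] [Fintype F], (2 : F) ≠ 0 →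
  ∀ x₁ ∈ Cfsg.spGL 2 F, ∀ x₂ ∈ Cfsg.spGL 2 F,
    (x₁ : Md 2 F) * (x₁ : Md 2 F) = -1 → (x₂ : Md 2 F) * (x₂ : Md 2 F) = -1 →
    ∃ g ∈ Cfsg.spGL 2 F, g⁻¹ * x₁ * g = x₂

/-- [NFP] in `Sp_4(q)`, `q` odd, any two involutions other than `±1` are conjugate in `Sp`. -/
def PkgNFP : Prop := ∀ {F : Type u} [Field F] [Fintype F], (2 : F) ≠ 0 →
  ∀ x₁ ∈ Cfsg.spGL 2 F, ∀ x₂ ∈ Cfsg.spGL 2 F,
    (x₁ : Md 2 F) * (x₁ : Md 2 F) = 1 → (x₂ : Md 2 F) * (x₂ : Md 2 F) = 1 →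
    (x₁ : Md 2 F) ≠ 1 → (x₁ : Md 2 F) ≠ -1 → (x₂ : Md 2 F) ≠ 1 → (x₂ : Md 2 F) ≠ -1 →
    ∃ g ∈ Cfsg.spGL 2 F, g⁻¹ * x₁ * g = x₂

/-- [KXM] `N(K) ∩ Sp_4(q)` contains an element with square `-1` (`d = k = 2`, `q` odd). -/
def PkgKXM : Prop := ∀ {F : Type u} [Field F] [Fintype F] (K : Subalgebra F (Md 2 F)),
  Adm 2 2 K → (2 : F) ≠ 0 →
  ∃ x ∈ Cfsg.spGL 2 F, x ∈ Cfsg.Geo.subalgebraNormalizer K ∧ (x : Md 2 F) * (x : Md 2 F) = -1

/-- [KXP] `N(K) ∩ Sp_4(q)` contains an involution other than `±1` (`d = k = 2`, `q` odd). -/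
def PkgKXP : Prop := ∀ {F : Type u} [Field F] [Fintype F] (K : Subalgebra F (Md 2 F)),
  Adm 2 2 K → (2 : F) ≠ 0 →
  ∃ x ∈ Cfsg.spGL 2 F, x ∈ Cfsg.Geo.subalgebraNormalizer K ∧ (x : Md 2 F) * (x : Md 2 F) = 1 ∧
    (x : Md 2 F) ≠ 1 ∧ (x : Md 2 F) ≠ -1

end Cfsg.Agent.Lib.Helper4.FXSP
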