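-- Project FXSP (S5975): assembly from the packages (helper4).
import Mathlib
import Cfsg.Agent.Lib.Helper4.FXSP.Defs
import Cfsg.Agent.Lib.Helper40.Symp

set_option autoImplicit false
open scoped MatrixGroups
open scoped Matrix

namespace Cfsg.Agent.Lib.Helper4.FXSP

open Cfsg Cfsg.Geo Matrix

universe u

section basics

variable {F : Type u} [Field F] {d : ℕ}

theorem mem_sp_iff (g : GL (Fin d ⊕ Fin d) F) :
    g ∈ spGL d F ↔ ∀ u v : Vd d F, sympForm d F ((g : Md d F) *ᵥ u) ((g : Md d F) *ᵥ v)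
      = sympForm d F u v := Iff.rfl

theorem symp_smul_left (z : F) (u v : Vd d F) :
    sympForm d F (z • u) v = z * sympForm d F u v := by
  unfold sympForm
  rw [smul_dotProduct, smul_eq_mul]

theorem symp_smul_right (z : F) (u v : Vd d F) :
    sympForm d F u (z • v) = z * sympForm d F u v := by
  unfold sympForm
  rw [Matrix.mulVec_smul, dotProduct_smul, smul_eq_mul]

/-- a scalar in `Sp` has square one -/
theorem scalar_sq (hd : 1 ≤ d) (g : GL (Fin d ⊕ Fin d) F) (hg : g ∈ spGL d F) (z : F)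
    (hz : (g : Md d F) = z • (1 : Md d F)) : z * z = 1 := by
  have hv : (Pi.single (Sum.inl ⟨0, hd⟩) 1 : Vd d F) ≠ 0 := by
    intro h
    have := congrFun h (Sum.inl ⟨0, hd⟩)
    simp at this
  obtain ⟨w, hw⟩ := Cfsg.Agent.Lib.Helper40.exists_sympForm_eq_one d _ hv
  have h := (mem_sp_iff g).1 hg (Pi.single (Sum.inl ⟨0, hd⟩) 1) w
  rw [hz, Matrix.smul_mulVec, Matrix.one_mulVec, Matrix.smul_mulVec, Matrix.one_mulVec,
    symp_smul_left, symp_smul_right, hw] at h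
  linear_combination h

theorem rank_conj (g x : GL (Fin d ⊕ Fin d) F) :
    (((g⁻¹ * x * g : GL (Fin d ⊕ Fin d) F) : Md d F) - 1).rank = ((x : Md d F) - 1).rank := by
  have h1 : ((g⁻¹ * x * g : GL (Fin d ⊕ Fin d) F) : Md d F) - 1 =
      ((g⁻¹ : GL (Fin d ⊕ Fin d) F) : Md d F) * ((x : Md d F) - 1) * (g : Md d F) := by
    rw [Units.val_mul, Units.val_mul, mul_sub, sub_mul, mul_one]
    congr 1
    rw [← Units.val_mul, inv_mul_cancel, Units.val_one]
  rw [h1, Matrix.rank_mul_eq_left_of_isUnit_det _ _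
    ((Matrix.isUnit_iff_isUnit_det _).1 g.isUnit),
    Matrix.rank_mul_eq_right_of_isUnit_det _ _
    ((Matrix.isUnit_iff_isUnit_det _).1 (g⁻¹).isUnit)]

theorem rank_scalar_sub (z : F) :
    ((z • (1 : Md d F)) - 1).rank = 0 ∨ ((z • (1 : Md d F)) - 1).rank = 2 * d := by
  by_cases hz : z = 1
  · left
    rw [hz, one_smul, sub_self, Matrix.rank_zero]
  · right
    have h1 : (z • (1 : Md d F)) - 1 = (z - 1) • (1 : Md d F) := by
      rw [sub_smul, one_smul]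
    rw [h1]
    have hu : IsUnit ((z - 1) • (1 : Md d F)) := by
      refine ⟨⟨(z - 1) • 1, (z - 1)⁻¹ • 1, ?_, ?_⟩, rfl⟩
      · rw [smul_mul_smul_comm, mul_one, mul_inv_cancel₀ (sub_ne_zero.2 hz), one_smul]
      · rw [smul_mul_smul_comm, mul_one, inv_mul_cancel₀ (sub_ne_zero.2 hz), one_smul]
    rw [Matrix.rank_of_isUnit _ hu]
    simp
    ring

theorem rank_ne_zero_of_ne_one (y : GL (Fin d ⊕ Fin d) F) (hy : y ≠ 1) :
    ((y : Md d F) - 1).rank ≠ 0 := by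
  intro h
  apply hy
  have h1 : LinearMap.range ((y : Md d F) - 1).mulVecLin = ⊥ := by
    apply Submodule.finrank_eq_zero.1
    exact h
  rw [LinearMap.range_eq_bot] at h1
  have h2 : (y : Md d F) - 1 = 0 := by
    apply Matrix.toLin'.injective
    rw [Matrix.toLin'_apply', h1, map_zero]
  apply Units.ext
  rw [Units.val_one]
  exact sub_eq_zero.1 h2

end basics

section key

variable {F : Type u} [Field F] [Fintype F] {d k : ℕ} {K : Subalgebra F (Md d F)}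

theorem conj_pow_eq_one {G : Type*} [Group G] (g x : G) (n : ℕ) (h : x ^ n = 1) :
    (g⁻¹ * x * g) ^ n = 1 := by
  have h1 := conj_pow (a := g⁻¹) (b := x) (i := n)
  rw [inv_inv] at h1
  rw [h1, h, mul_one, inv_mul_cancel]

theorem spOrd_pos (q d : ℕ) (hq : 2 ≤ q) : 0 < spOrd q d := by
  unfold spOrd
  apply Nat.mul_pos (pow_pos (by omega) _)
  apply Finset.prod_pos
  intro j _
  have : 1 < q ^ (2 * (j + 1)) := Nat.one_lt_pow (by omega) (by omega)
  omega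

omit [Fintype F] in
/-- the range of `y - 1` is `K`-invariant when `y` commutes with `K` -/
theorem range_inv (y : GL (Fin d ⊕ Fin d) F)
    (hc : ∀ a ∈ K, (y : Md d F) * a = a * (y : Md d F)) :
    ∀ a ∈ K, ∀ w ∈ LinearMap.range ((y : Md d F) - 1).mulVecLin,
      a *ᵥ w ∈ LinearMap.range ((y : Md d F) - 1).mulVecLin := by
  rintro a ha w ⟨v, rfl⟩
  refine ⟨a *ᵥ v, ?_⟩
  rw [Matrix.mulVecLin_apply, Matrix.mulVecLin_apply, Matrix.mulVec_mulVec, Matrix.mulVec_mulVec,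
    sub_mul, mul_sub, hc a ha, one_mul, mul_one]

theorem lin_kdiv (hKDiv : PkgKDiv.{u}) (hK : IsFieldSubalgebra k K) (y : GL (Fin d ⊕ Fin d) F)
    (hc : ∀ a ∈ K, (y : Md d F) * a = a * (y : Md d F)) : k ∣ ((y : Md d F) - 1).rank :=
  hKDiv d k K hK _ (range_inv y hc)

theorem lin_even (hEvenW : PkgEvenW.{u}) (hRange : PkgRange.{u}) (hA : Adm d k K)
    (y : GL (Fin d ⊕ Fin d) F) (hy : y ∈ spGL d F)
    (hc : ∀ a ∈ K, (y : Md d F) * a = a * (y : Md d F)) (N : ℕ) (hN : (N : F) ≠ 0)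
    (hyN : y ^ N = 1) : 2 * k ∣ ((y : Md d F) - 1).rank :=
  hEvenW d k K hA _ (range_inv y hc) (hRange d y hy N hN hyN)

theorem top_even (hEvenW : PkgEvenW.{u}) (hA : Adm d k K) : 2 * k ∣ 2 * d := by
  have h := hEvenW d k K hA ⊤ (fun _ _ _ _ => Submodule.mem_top) (fun w _ hw => by
    by_contra h0
    obtain ⟨w', hw'⟩ := Cfsg.Agent.Lib.Helper40.exists_sympForm_eq_one d w h0
    rw [hw w' Submodule.mem_top] at hw'
    exact zero_ne_one hw')
  rw [finrank_top, Module.finrank_fintype_fun_eq_card, Fintype.card_sum, Fintype.card_fin] at h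
  rwa [two_mul d]

theorem fwd_p (hKDiv : PkgKDiv.{u}) (hSemi : PkgSemi.{u}) (hTransv : PkgTransv.{u})
    {p : ℕ} [Fact p.Prime] [CharP F p] (hd : 2 ≤ d) (hk : k.Prime) (hK : IsFieldSubalgebra k K)
    (hall : ∀ x ∈ spGL d F, (∃ z : F, ((x ^ p : GL (Fin d ⊕ Fin d) F) : Md d F) = z • (1 : Md d F)) →
      (∀ z : F, (x : Md d F) ≠ z • (1 : Md d F)) →
      ∃ g ∈ spGL d F, g⁻¹ * x * g ∈ subalgebraNormalizer K) : False := by
  obtain ⟨t, ht, htp, hrk⟩ := hTransv (F := F) d p (by omega)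
  have hns : ∀ z : F, (t : Md d F) ≠ z • (1 : Md d F) := by
    intro z hz
    rcases rank_scalar_sub (d := d) z with h | h
    · rw [← hz, hrk] at h; omega
    · rw [← hz, hrk] at h; omega
  obtain ⟨g, hg, hy⟩ := hall t ht ⟨1, by rw [htp, Units.val_one, one_smul]⟩ hns
  have hr := rank_conj g t
  rw [hrk] at hr
  by_cases hc : ∀ a ∈ K, ((g⁻¹ * t * g : GL (Fin d ⊕ Fin d) F) : Md d F) * a =
      a * ((g⁻¹ * t * g : GL (Fin d ⊕ Fin d) F) : Md d F)
  · have h1 := lin_kdiv hKDiv hK _ hc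
    rw [hr] at h1
    exact hk.one_lt.ne' (Nat.dvd_one.1 h1)
  · push Not at hc
    have h1 := hSemi d k K hK hk _ hy hc
    rw [hr] at h1
    have h2 : 2 * (2 * d - 1) ≤ k * (2 * d - 1) := Nat.mul_le_mul_right _ hk.two_le
    omega

theorem fwd_two (hEvenW : PkgEvenW.{u}) (hRange : PkgRange.{u}) (hSemi : PkgSemi.{u})
    (hAut : PkgAut.{u}) (hInvol : PkgInvol.{u}) (h2 : (2 : F) ≠ 0) (hd : 2 ≤ d) (hk : k.Prime)
    (hA : Adm d k K)
    (hall : ∀ x ∈ spGL d F, (∃ z : F, ((x ^ 2 : GL (Fin d ⊕ Fin d) F) : Md d F) = z • (1 : Md d F)) →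
      (∀ z : F, (x : Md d F) ≠ z • (1 : Md d F)) →
      ∃ g ∈ spGL d F, g⁻¹ * x * g ∈ subalgebraNormalizer K) : d = 2 ∧ k = 2 := by
  obtain ⟨x, hx, hx2, hrk⟩ := hInvol d (by omega) h2
  have hns : ∀ z : F, (x : Md d F) ≠ z • (1 : Md d F) := by
    intro z hz
    rcases rank_scalar_sub (d := d) z with h | h
    · rw [← hz, hrk] at h; omega
    · rw [← hz, hrk] at h; omega
  obtain ⟨g, hg, hy⟩ := hall x hx ⟨1, by rw [hx2, Units.val_one, one_smul]⟩ hns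
  have hr := rank_conj g x
  rw [hrk] at hr
  have hySp : g⁻¹ * x * g ∈ spGL d F := mul_mem (mul_mem (inv_mem hg) hx) hg
  have hy2 : (g⁻¹ * x * g) ^ 2 = 1 := conj_pow_eq_one g x 2 hx2
  by_cases hc : ∀ a ∈ K, ((g⁻¹ * x * g : GL (Fin d ⊕ Fin d) F) : Md d F) * a =
      a * ((g⁻¹ * x * g : GL (Fin d ⊕ Fin d) F) : Md d F)
  · have h1 := lin_even hEvenW hRange hA _ hySp hc 2 (by exact_mod_cast h2) hy2
    rw [hr] at h1
    have h3 : k ∣ 1 := Nat.dvd_of_mul_dvd_mul_left two_pos (by simpa using h1)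
    exact absurd (Nat.dvd_one.1 h3) hk.one_lt.ne'
  · push Not at hc
    have h1 := hSemi d k K hA.fld hk _ hy hc
    have h3 := hAut d k K hA.fld 2 Nat.prime_two _ hy hy2 hc
    have hk2 : k = 2 := ((Nat.prime_dvd_prime_iff_eq Nat.prime_two hk).1 h3).symm
    rw [hr, hk2] at h1
    exact ⟨by omega, hk2⟩

theorem fwd_odd (hEvenW : PkgEvenW.{u}) (hRange : PkgRange.{u}) (hSemi : PkgSemi.{u})
    (hAut : PkgAut.{u}) (hOrb : PkgOrb.{u}) (hEx : PkgEx.{u}) (hSpCard : PkgSpCard.{u})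
    (hVal : PkgVal) (hDarb : PkgDarb.{u}) (hEmb2 : PkgEmb2.{u})
    (hd : 2 ≤ d) (hk : k.Prime) (hA : Adm d k K) (r : ℕ) (hr : r.Prime) (hr2 : r ≠ 2)
    (hrF : (r : F) ≠ 0) (hrq : ¬ r ∣ Fintype.card F)
    (hΩ : r ∣ (subalgebraNormalizer K).relIndex (spGL d F))
    (hall : ∀ x ∈ spGL d F, (∃ z : F, ((x ^ r : GL (Fin d ⊕ Fin d) F) : Md d F) = z • (1 : Md d F)) →
      (∀ z : F, (x : Md d F) ≠ z • (1 : Md d F)) →
      ∃ g ∈ spGL d F, g⁻¹ * x * g ∈ subalgebraNormalizer K) : False := by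
  classical
  have : Fact r.Prime := ⟨hr⟩
  obtain ⟨q, hq⟩ : ∃ q, q = Fintype.card F := ⟨_, rfl⟩
  rw [← hq] at hrq
  have hq2 : 2 ≤ q := by rw [hq]; exact Fintype.one_lt_card
  obtain ⟨u, hu⟩ : ∃ u : ZMod r, u = (q : ZMod r) ^ 2 := ⟨_, rfl⟩
  have hdvd_iff : ∀ n : ℕ, r ∣ q ^ (2 * n) - 1 ↔ u ^ n = 1 := by
    intro n
    rw [← ZMod.natCast_eq_zero_iff (q ^ (2 * n) - 1) r,
      Nat.cast_sub (Nat.one_le_pow _ _ (by omega)), Nat.cast_pow, Nat.cast_one, sub_eq_zero, hu,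
      ← pow_mul]
  have hcard : r ∣ spOrd q d := by
    rw [hq, ← hSpCard d]
    exact dvd_trans hΩ (Subgroup.relIndex_dvd_card _ _)
  obtain ⟨n₁, hn₁, hn₁d, hrn₁⟩ : ∃ n, 1 ≤ n ∧ n ≤ d ∧ r ∣ q ^ (2 * n) - 1 := by
    unfold spOrd at hcard
    rcases (Nat.Prime.dvd_mul hr).1 hcard with h | h
    · exact absurd (hr.dvd_of_dvd_pow h) hrq
    · obtain ⟨j, hj, hjd⟩ := (Prime.dvd_finsetProd_iff hr.prime _).1 h
      exact ⟨j + 1, by omega, by have := Finset.mem_range.1 hj; omega, hjd⟩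
  obtain ⟨s, hs⟩ : ∃ s, s = orderOf u := ⟨_, rfl⟩
  have hs_dvd : ∀ n, r ∣ q ^ (2 * n) - 1 → s ∣ n := fun n h => by
    rw [hs]; exact orderOf_dvd_of_pow_eq_one ((hdvd_iff n).1 h)
  have hs1 : 1 ≤ s := by
    have h := hs_dvd n₁ hrn₁
    rcases Nat.eq_zero_or_pos s with h0 | h0
    · rw [h0, zero_dvd_iff] at h; omega
    · exact h0
  have hsd : s ≤ d := le_trans (Nat.le_of_dvd (by omega) (hs_dvd n₁ hrn₁)) hn₁d
  have hrs : r ∣ q ^ (2 * s) - 1 := (hdvd_iff s).2 (by rw [hs]; exact pow_orderOf_eq_one u)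
  have hr3 : 3 ≤ r := by have := hr.two_le; omega
  have hs_r : 2 * s ≤ r - 1 := by
    have hq0 : (q : ZMod r) ≠ 0 := by
      rw [Ne, ZMod.natCast_eq_zero_iff]; exact hrq
    have h1 : u ^ ((r - 1) / 2) = 1 := by
      rw [hu, ← pow_mul, Nat.mul_div_cancel' (hr.even_sub_one hr2).two_dvd]
      exact ZMod.pow_card_sub_one_eq_one hq0
    have h2 : s ∣ (r - 1) / 2 := by rw [hs]; exact orderOf_dvd_of_pow_eq_one h1
    have h3 : s ≤ (r - 1) / 2 := Nat.le_of_dvd (Nat.div_pos (by omega) two_pos) h2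
    omega
  obtain ⟨x, hx, hxr, hx1, hrk⟩ := hEx d s r hr hs1 hsd (by rw [← hq]; exact hrs)
  have hns : ∀ z : F, (x : Md d F) ≠ z • (1 : Md d F) := by
    intro z hz
    have hzz := scalar_sq (by omega) x hx z hz
    have hzr : z ^ r = 1 := by
      have h1 : ((x ^ r : GL (Fin d ⊕ Fin d) F) : Md d F) = z ^ r • (1 : Md d F) := by
        rw [Units.val_pow_eq_pow_val, hz, smul_pow, one_pow]
      rw [hxr, Units.val_one] at h1
      have h2 := congrFun (congrFun h1 (Sum.inl ⟨0, by omega⟩)) (Sum.inl ⟨0, by omega⟩)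
      simpa using h2.symm
    have hz1 : z = 1 := by
      obtain ⟨t, ht⟩ := hr.odd_of_ne_two hr2
      rw [ht, pow_succ, pow_mul, sq, hzz, one_pow, one_mul] at hzr
      exact hzr
    apply hx1
    apply Units.ext
    rw [hz, hz1, one_smul, Units.val_one]
  obtain ⟨g, hg, hy⟩ := hall x hx ⟨1, by rw [hxr, Units.val_one, one_smul]⟩ hns
  have hr' := rank_conj g x
  have hySp : g⁻¹ * x * g ∈ spGL d F := mul_mem (mul_mem (inv_mem hg) hx) hg
  have hyr : (g⁻¹ * x * g) ^ r = 1 := conj_pow_eq_one g x r hxr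
  have hy1 : g⁻¹ * x * g ≠ 1 := by
    intro h
    apply hx1
    have h1 : x = g * (g⁻¹ * x * g) * g⁻¹ := by group
    rw [h1, h, mul_one, mul_inv_cancel]
  have hρ0 := rank_ne_zero_of_ne_one _ hy1
  obtain ⟨y, hydef⟩ : ∃ y : GL (Fin d ⊕ Fin d) F, y = g⁻¹ * x * g := ⟨_, rfl⟩
  rw [← hydef] at hy hr' hySp hyr hy1 hρ0
  obtain ⟨ρ, hρdef⟩ : ∃ ρ, ρ = ((y : Md d F) - 1).rank := ⟨_, rfl⟩
  rw [← hρdef] at hr' hρ0
  have hρs : ρ ≤ 2 * s := by rw [hr']; exact hrk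
  have hkd : k ≤ d := by
    have h1 : k ∣ d := Nat.dvd_of_mul_dvd_mul_left two_pos (top_even hEvenW hA)
    exact Nat.le_of_dvd (by omega) h1
  by_cases hc : ∀ a ∈ K, (y : Md d F) * a = a * (y : Md d F)
  · have h1 := lin_even hEvenW hRange hA y hySp hc r hrF hyr
    have h2 := hOrb d r hr hrF y hyr
    rw [← hρdef] at h1 h2
    obtain ⟨ρ', hρ'⟩ : 2 ∣ ρ := dvd_trans (dvd_mul_right 2 k) h1
    rw [← hq, hρ'] at h2
    have h3 := hs_dvd ρ' h2
    have h4 : s ≤ ρ' := Nat.le_of_dvd (by omega) h3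
    have h5 : ρ = 2 * s := by omega
    have hks : k ∣ s := by
      rw [h5] at h1
      exact Nat.dvd_of_mul_dvd_mul_left two_pos h1
    obtain ⟨m, τ, e, hD⟩ := hDarb d k K hA (by omega)
    obtain ⟨hdm, hB⟩ := hEmb2 d k K hA (by omega) m τ e hD
    have hv := hVal q k m r hq2 hr hrq hk.one_le (fun n _ hn => dvd_trans hks (hs_dvd n hn))
    rw [← hdm, hq] at hv
    rw [hq] at hcard hq2
    have hmul : Nat.card ↥(subalgebraNormalizer K ⊓ spGL d F) *
        (subalgebraNormalizer K).relIndex (spGL d F) = spOrd (Fintype.card F) d := by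
      rw [← hSpCard d, ← Subgroup.inf_relIndex_right,
        ← Subgroup.relIndex_bot_left (H := subalgebraNormalizer K ⊓ spGL d F),
        ← Subgroup.relIndex_bot_left (H := spGL d F)]
      exact Subgroup.relIndex_mul_relIndex _ _ _ bot_le inf_le_right
    have hA0 : spOrd (Fintype.card F) d ≠ 0 := (spOrd_pos _ d hq2).ne'
    obtain ⟨v, hvdef⟩ : ∃ v, v = padicValNat r (spOrd (Fintype.card F) d) := ⟨_, rfl⟩
    rw [← hvdef] at hv
    have hcon : r ^ (v + 1) ∣ spOrd (Fintype.card F) d := by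
      rw [← hmul, pow_succ]
      exact mul_dvd_mul (dvd_trans (dvd_trans (pow_dvd_pow r hv) pow_padicValNat_dvd) hB) hΩ
    rw [hvdef] at hcon
    exact pow_succ_padicValNat_not_dvd hA0 hcon
  · push Not at hc
    have h1 := hSemi d k K hA.fld hk y hy hc
    have h3 := hAut d k K hA.fld r hr y hy hyr hc
    have hkr : r = k := (Nat.prime_dvd_prime_iff_eq hr hk).1 h3
    rw [← hρdef] at h1
    have h4 : ρ ≤ k - 1 := by omega
    have h5 : d + 1 ≤ 2 * d - ρ := by omega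
    have h6 : k * (d + 1) ≤ k * (2 * d - ρ) := Nat.mul_le_mul_left _ h5
    have h7 : 2 * (d + 1) ≤ k * (d + 1) := Nat.mul_le_mul_right _ hk.two_le
    omega

end key

/-- S5975 from the packages. -/
theorem asm (hKDiv : PkgKDiv.{u}) (hEvenW : PkgEvenW.{u}) (hRange : PkgRange.{u})
    (hSemi : PkgSemi.{u}) (hAut : PkgAut.{u}) (hOrb : PkgOrb.{u}) (hTransv : PkgTransv.{u})
    (hInvol : PkgInvol.{u}) (hEx : PkgEx.{u}) (hSpCard : PkgSpCard.{u}) (hVal : PkgVal)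
    (hDarb : PkgDarb.{u}) (hEmb2 : PkgEmb2.{u}) (hNFM : PkgNFM.{u}) (hNFP : PkgNFP.{u})
    (hKXM : PkgKXM.{u}) (hKXP : PkgKXP.{u})
    {F : Type u} [Field F] [Fintype F] {p : ℕ} [Fact p.Prime] [CharP F p] {q : ℕ} (hq : Fintype.card F = q)
    (d : ℕ) (hd : 2 ≤ d) (_hT : (d, q) ≠ (2, 2)) (k : ℕ) (hk : k.Prime)
    (K : Subalgebra F (Matrix (Fin d ⊕ Fin d) (Fin d ⊕ Fin d) F)) (hK : Cfsg.Geo.IsFieldSubalgebra k K)
    (hKf : Cfsg.Geo.IsSelfAdjointFor (Cfsg.sympForm d F) K) (hKalt : ∀ a ∈ K, ∀ v : Fin d ⊕ Fin d → F, Cfsg.sympForm d F (a *ᵥ v) v = 0)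
    (r : ℕ) [Fact r.Prime]
    (hΩ : r ∣ (Cfsg.Geo.subalgebraNormalizer K).relIndex (Cfsg.spGL d F)) :
    (∀ x ∈ Cfsg.spGL d F, (∃ z : F, ((x ^ r : GL (Fin d ⊕ Fin d) F) : Matrix (Fin d ⊕ Fin d) (Fin d ⊕ Fin d) F) = z • (1 : Matrix (Fin d ⊕ Fin d) (Fin d ⊕ Fin d) F)) →
      (∀ z : F, (x : Matrix (Fin d ⊕ Fin d) (Fin d ⊕ Fin d) F) ≠ z • (1 : Matrix (Fin d ⊕ Fin d) (Fin d ⊕ Fin d) F)) →
      ∃ g ∈ Cfsg.spGL d F, g⁻¹ * x * g ∈ Cfsg.Geo.subalgebraNormalizer K) ↔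
    (r = 2 ∧ d = 2 ∧ k = 2 ∧ Odd q) := by
  have hp : p.Prime := Fact.out
  have hr : r.Prime := Fact.out
  constructor
  · intro hall
    have hA : Adm d k K := ⟨hK, hKf, hKalt⟩
    by_cases hrp : r = p
    · subst hrp
      exact (fwd_p hKDiv hSemi hTransv hd hk hK hall).elim
    · have hrF : (r : F) ≠ 0 := by
        rw [Ne, CharP.cast_eq_zero_iff F p r]
        intro h
        exact hrp ((Nat.prime_dvd_prime_iff_eq hp hr).1 h).symm
      by_cases hr2 : r = 2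
      · subst hr2
        have h2 : (2 : F) ≠ 0 := by exact_mod_cast hrF
        obtain ⟨h1, h2'⟩ := fwd_two hEvenW hRange hSemi hAut hInvol h2 hd hk hA hall
        refine ⟨rfl, h1, h2', ?_⟩
        rw [← hq, Nat.odd_iff]
        apply FiniteField.odd_card_of_char_ne_two
        rw [ringChar.eq F p]
        exact fun h => hrp h.symm
      · exfalso
        have hrq : ¬ r ∣ Fintype.card F := by
          obtain ⟨n, _, hn⟩ := FiniteField.card F p
          rw [hn]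
          intro h
          exact hrp ((Nat.prime_dvd_prime_iff_eq hr hp).1 (hr.dvd_of_dvd_pow h))
        exact fwd_odd hEvenW hRange hSemi hAut hOrb hEx hSpCard hVal hDarb hEmb2 hd hk hA r hr hr2
          hrF hrq hΩ hall
  · rintro ⟨rfl, rfl, rfl, hodd⟩
    have hA : Adm 2 2 K := ⟨hK, hKf, hKalt⟩
    have h2 : (2 : F) ≠ 0 := by
      intro h
      have h3 : ((2 : ℕ) : F) = 0 := by exact_mod_cast h
      rw [CharP.cast_eq_zero_iff F p 2] at h3
      have hp2 : p = 2 := (Nat.prime_dvd_prime_iff_eq hp Nat.prime_two).1 h3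
      have h4 := FiniteField.even_card_of_char_two (F := F) (by rw [ringChar.eq F p, hp2])
      rw [hq] at h4
      rw [Nat.odd_iff] at hodd
      omega
    intro x hx hz hns
    obtain ⟨z, hz⟩ := hz
    have hzz : z * z = 1 := scalar_sq (by norm_num) (x ^ 2) (pow_mem hx 2) z hz
    have hxx : (x : Md 2 F) * (x : Md 2 F) = z • (1 : Md 2 F) := by
      rw [← hz, pow_two, Units.val_mul]
    rcases mul_self_eq_one_iff.1 hzz with hz1 | hz1
    · obtain ⟨x'', hx''Sp, hx''N, hx''2, hx''1, hx''m⟩ := hKXP K hA h2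
      obtain ⟨g, hg, hgx⟩ := hNFP h2 x hx x'' hx''Sp (by rw [hxx, hz1, one_smul]) hx''2
        (fun h => hns 1 (by rw [h, one_smul])) (fun h => hns (-1) (by rw [h]; simp)) hx''1 hx''m
      exact ⟨g, hg, by rw [hgx]; exact hx''N⟩
    · obtain ⟨x', hx'Sp, hx'N, hx'2⟩ := hKXM K hA h2
      obtain ⟨g, hg, hgx⟩ := hNFM h2 x hx x' hx'Sp (by rw [hxx, hz1]; simp) hx'2
      exact ⟨g, hg, by rw [hgx]; exact hx'N⟩

end Cfsg.Agent.Lib.Helper4.FXSP
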