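-- Project FXSP (S5975): package [DARB] (helper4, second seat).
import Mathlib
import Cfsg.Agent.Lib.Helper4.FXSP.Defs
import Cfsg.Agent.Lib.Helper94.Symp
import Cfsg.Agent.Lib.Helper40.Symp

set_option autoImplicit false
open scoped Matrix

namespace Cfsg.Agent.Lib.Helper4.FXSP

open Cfsg Cfsg.Geo Matrix Cfsg.Agent.Lib.Helper94

universe u

section darb

variable {F : Type u} [Field F] {d k : ℕ} {K : Subalgebra F (Md d F)}

theorem darb_iso (hA : Adm d k K) (a b : ↥K) (x : Vd d F) :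
    sympForm d F ((a : Md d F) *ᵥ x) ((b : Md d F) *ᵥ x) = 0 := by
  rw [hA.sa a.1 a.2, Matrix.mulVec_mulVec, sf_swap,
    hA.alt ((a : Md d F) * (b : Md d F)) (K.mul_mem a.2 b.2) x, neg_zero]

theorem darb_comm (hK : IsFieldSubalgebra k K) (a b : ↥K) : a * b = b * a :=
  Subtype.ext (hK.comm a.1 a.2 b.1 b.2)

/-- if `τ (z * b) = 0` for all `b` then `z = 0` -/
theorem darb_tau_zero (hK : IsFieldSubalgebra k K) (τ : ↥K →ₗ[F] F) (hτ : τ ≠ 0) (z : ↥K)
    (hz : ∀ b : ↥K, τ (z * b) = 0) : z = 0 := by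
  by_contra hz0
  apply hτ
  obtain ⟨y, hy, hzy⟩ := hK.inv z.1 z.2 (fun h => hz0 (Subtype.ext h))
  ext b
  have h1 := hz (⟨y, hy⟩ * b)
  rw [← mul_assoc] at h1
  have h2 : z * (⟨y, hy⟩ : ↥K) = 1 := Subtype.ext hzy
  rw [h2, one_mul] at h1
  rw [h1, LinearMap.zero_apply]

/-- every functional on `K` is `τ (c * ·)` -/
theorem darb_dual (hK : IsFieldSubalgebra k K) (τ : ↥K →ₗ[F] F) (hτ : τ ≠ 0) (l : ↥K →ₗ[F] F) :
    ∃ c : ↥K, ∀ a : ↥K, l a = τ (c * a) := by
  classical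
  let D : ↥K →ₗ[F] Module.Dual F ↥K :=
    { toFun := fun c => τ.comp (LinearMap.mulLeft F c)
      map_add' := fun c c' => by
        ext a
        simp [add_mul]
      map_smul' := fun s c => by
        ext a
        simp }
  have hD : ∀ c a : ↥K, D c a = τ (c * a) := fun c a => rfl
  have hinj : Function.Injective D := by
    rw [← LinearMap.ker_eq_bot, LinearMap.ker_eq_bot']
    intro c hc
    apply darb_tau_zero hK τ hτ
    intro b
    rw [← hD, hc, LinearMap.zero_apply]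
  have hfin : Module.finrank F ↥K = Module.finrank F (Module.Dual F ↥K) :=
    (Subspace.dual_finrank_eq).symm
  have hsurj := (LinearMap.injective_iff_surjective_of_finrank_eq_finrank hfin).1 hinj
  obtain ⟨c, hc⟩ := hsurj l
  exact ⟨c, fun a => by rw [← hc, hD]⟩

/-- the functional `a ↦ f (a x) y` on `K` -/
def darbL (K : Subalgebra F (Md d F)) (x y : Vd d F) : ↥K →ₗ[F] F where
  toFun a := sympForm d F ((a : Md d F) *ᵥ x) y
  map_add' a b := by
    rw [Subalgebra.coe_add, Matrix.add_mulVec, sf_add_left]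
  map_smul' s a := by
    rw [Subalgebra.coe_smul, Matrix.smul_mulVec, sf_smul_left, RingHom.id_apply, smul_eq_mul]

/-- the functional `a ↦ f y (a x)` on `K` -/
def darbR (K : Subalgebra F (Md d F)) (x y : Vd d F) : ↥K →ₗ[F] F where
  toFun a := sympForm d F y ((a : Md d F) *ᵥ x)
  map_add' a b := by
    rw [Subalgebra.coe_add, Matrix.add_mulVec, sf_add_right]
  map_smul' s a := by
    rw [Subalgebra.coe_smul, Matrix.smul_mulVec, sf_smul_right, RingHom.id_apply, smul_eq_mul]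

/-- the induction producing a `K`-Darboux family in a `K`-invariant non-degenerate subspace -/
theorem darb_aux (hA : Adm d k K) (τ : ↥K →ₗ[F] F) (hτ : τ ≠ 0) :
    ∀ (n : ℕ) (W : Submodule F (Vd d F)), Module.finrank F W ≤ n →
      (∀ a : ↥K, ∀ w ∈ W, (a : Md d F) *ᵥ w ∈ W) →
      (∀ w ∈ W, (∀ x ∈ W, sympForm d F w x = 0) → w = 0) →
      ∃ (m : ℕ) (w u : Fin m → Vd d F),
        (∀ j, w j ∈ W ∧ u j ∈ W) ∧
        (∀ (a b : ↥K) (i j : Fin m), sympForm d F ((a : Md d F) *ᵥ u i) ((b : Md d F) *ᵥ w j) =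
          if i = j then τ (a * b) else 0) ∧
        (∀ (a b : ↥K) (i j : Fin m),
          sympForm d F ((a : Md d F) *ᵥ w i) ((b : Md d F) *ᵥ w j) = 0) ∧
        (∀ (a b : ↥K) (i j : Fin m),
          sympForm d F ((a : Md d F) *ᵥ u i) ((b : Md d F) *ᵥ u j) = 0) ∧
        (∀ v ∈ W, ∃ c c' : Fin m → ↥K,
          v = ∑ j, (c j : Md d F) *ᵥ w j + ∑ j, (c' j : Md d F) *ᵥ u j) := by
  classical
  have hK := hA.fld
  have hbase : ∀ W : Submodule F (Vd d F), W = ⊥ →
      ∃ (m : ℕ) (w u : Fin m → Vd d F),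
        (∀ j, w j ∈ W ∧ u j ∈ W) ∧
        (∀ (a b : ↥K) (i j : Fin m), sympForm d F ((a : Md d F) *ᵥ u i) ((b : Md d F) *ᵥ w j) =
          if i = j then τ (a * b) else 0) ∧
        (∀ (a b : ↥K) (i j : Fin m),
          sympForm d F ((a : Md d F) *ᵥ w i) ((b : Md d F) *ᵥ w j) = 0) ∧
        (∀ (a b : ↥K) (i j : Fin m),
          sympForm d F ((a : Md d F) *ᵥ u i) ((b : Md d F) *ᵥ u j) = 0) ∧
        (∀ v ∈ W, ∃ c c' : Fin m → ↥K,
          v = ∑ j, (c j : Md d F) *ᵥ w j + ∑ j, (c' j : Md d F) *ᵥ u j) := by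
    intro W hW
    refine ⟨0, Fin.elim0, Fin.elim0, fun j => j.elim0, fun _ _ i => i.elim0,
      fun _ _ i => i.elim0, fun _ _ i => i.elim0, ?_⟩
    intro v hv
    rw [hW, Submodule.mem_bot] at hv
    refine ⟨Fin.elim0, Fin.elim0, ?_⟩
    simp [hv]
  intro n
  induction n with
  | zero =>
    intro W hn _ _
    exact hbase W (Submodule.finrank_eq_zero.1 (Nat.le_zero.1 hn))
  | succ n ih =>
    intro W hn hinv hnd
    by_cases hW : W = ⊥
    · exact hbase W hW
    obtain ⟨w₀, hw₀W, hw₀⟩ := Submodule.exists_mem_ne_zero_of_ne_bot hW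
    obtain ⟨u₀, hu₀W, hu₀⟩ : ∃ u₀ ∈ W, sympForm d F w₀ u₀ ≠ 0 := by
      by_contra h
      push Not at h
      exact hw₀ (hnd w₀ hw₀W h)
    -- normalise
    obtain ⟨c, hc⟩ := darb_dual hK τ hτ (darbL K u₀ w₀)
    have hc0 : (c : Md d F) ≠ 0 := by
      intro h
      have h1 := hc 1
      have h2 : c = 0 := Subtype.ext h
      rw [h2, zero_mul, map_zero] at h1
      apply hu₀
      rw [sf_swap]
      have h3 : darbL K u₀ w₀ 1 = sympForm d F u₀ w₀ := by
        show sympForm d F (((1 : ↥K) : Md d F) *ᵥ u₀) w₀ = _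
        rw [Subalgebra.coe_one, Matrix.one_mulVec]
      rw [← h3, h1, neg_zero]
    obtain ⟨ci, hci, hcci⟩ := hK.inv c.1 c.2 hc0
    obtain ⟨u₁, hu₁def⟩ : ∃ u₁ : Vd d F, u₁ = ci *ᵥ u₀ := ⟨_, rfl⟩
    have hu₁W : u₁ ∈ W := by rw [hu₁def]; exact hinv ⟨ci, hci⟩ u₀ hu₀W
    have hkey : ∀ a b : ↥K, sympForm d F ((a : Md d F) *ᵥ u₁) ((b : Md d F) *ᵥ w₀) = τ (a * b) := by
      intro a b
      rw [← hA.sa b.1 b.2, hu₁def, Matrix.mulVec_mulVec, Matrix.mulVec_mulVec]
      have h1 := hc (b * a * ⟨ci, hci⟩)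
      have h2 : c * (b * a * ⟨ci, hci⟩) = a * b := by
        rw [darb_comm hK c, mul_assoc, darb_comm hK (⟨ci, hci⟩ : ↥K) c]
        have h3 : c * (⟨ci, hci⟩ : ↥K) = 1 := Subtype.ext hcci
        rw [h3, mul_one, darb_comm hK]
      rw [h2] at h1
      rw [← h1]
      show _ = sympForm d F (((b * a * ⟨ci, hci⟩ : ↥K) : Md d F) *ᵥ u₀) w₀
      rw [Subalgebra.coe_mul, Subalgebra.coe_mul, mul_assoc]
    have hkey' : ∀ a b : ↥K, sympForm d F ((a : Md d F) *ᵥ w₀) ((b : Md d F) *ᵥ u₁) = -τ (b * a) := by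
      intro a b
      rw [sf_swap, hkey]
    -- the complement
    let W' : Submodule F (Vd d F) :=
      { carrier := {v | v ∈ W ∧ ∀ a : ↥K, sympForm d F v ((a : Md d F) *ᵥ w₀) = 0 ∧
          sympForm d F v ((a : Md d F) *ᵥ u₁) = 0}
        add_mem' := by
          rintro x y ⟨hx, hx'⟩ ⟨hy, hy'⟩
          refine ⟨W.add_mem hx hy, fun a => ?_⟩
          rw [sf_add_left, sf_add_left, (hx' a).1, (hx' a).2, (hy' a).1, (hy' a).2, add_zero]
          exact ⟨rfl, rfl⟩
        zero_mem' := ⟨W.zero_mem, fun a => ⟨sf_zero_left d _, sf_zero_left d _⟩⟩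
        smul_mem' := by
          rintro s x ⟨hx, hx'⟩
          refine ⟨W.smul_mem s hx, fun a => ?_⟩
          rw [sf_smul_left, sf_smul_left, (hx' a).1, (hx' a).2, mul_zero]
          exact ⟨rfl, rfl⟩ }
    have hW'mem : ∀ v, v ∈ W' ↔ (v ∈ W ∧ ∀ a : ↥K, sympForm d F v ((a : Md d F) *ᵥ w₀) = 0 ∧
        sympForm d F v ((a : Md d F) *ᵥ u₁) = 0) := fun v => Iff.rfl
    have hW'le : W' ≤ W := fun v hv => hv.1
    have hW'inv : ∀ a : ↥K, ∀ v ∈ W', (a : Md d F) *ᵥ v ∈ W' := by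
      intro a v hv
      rw [hW'mem] at hv ⊢
      refine ⟨hinv a v hv.1, fun b => ?_⟩
      rw [hA.sa a.1 a.2, hA.sa a.1 a.2, Matrix.mulVec_mulVec, Matrix.mulVec_mulVec]
      exact ⟨(hv.2 (a * b)).1, (hv.2 (a * b)).2⟩
    -- decomposition
    have hdec : ∀ y ∈ W, ∃ a₁ b₁ : ↥K,
        y - ((a₁ : Md d F) *ᵥ w₀ + (b₁ : Md d F) *ᵥ u₁) ∈ W' := by
      intro y hy
      obtain ⟨b₁, hb₁⟩ := darb_dual hK τ hτ (darbR K w₀ y)
      obtain ⟨a₁, ha₁⟩ := darb_dual hK τ hτ (-(darbR K u₁ y))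
      refine ⟨a₁, b₁, ?_⟩
      rw [hW'mem]
      refine ⟨W.sub_mem hy (W.add_mem (hinv _ w₀ hw₀W) (hinv _ u₁ hu₁W)), fun a => ⟨?_, ?_⟩⟩
      · have h1 : sympForm d F y ((a : Md d F) *ᵥ w₀) = τ (b₁ * a) := hb₁ a
        rw [sub_eq_add_neg, sf_add_left, ← neg_one_smul F, sf_smul_left, sf_add_left,
          darb_iso hA, hkey, h1]
        ring
      · have h1 : -sympForm d F y ((a : Md d F) *ᵥ u₁) = τ (a₁ * a) := by
          have h := ha₁ a
          rwa [LinearMap.neg_apply] at h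
        rw [sub_eq_add_neg, sf_add_left, ← neg_one_smul F, sf_smul_left, sf_add_left,
          darb_iso hA, hkey', darb_comm hK a a₁, ← h1]
        ring
    have hW'nd : ∀ v ∈ W', (∀ x ∈ W', sympForm d F v x = 0) → v = 0 := by
      intro v hv hvx
      apply hnd v (hW'le hv)
      intro y hy
      obtain ⟨a₁, b₁, hy'⟩ := hdec y hy
      have h1 := hvx _ hy'
      rw [hW'mem] at hv
      have h2 : y = (y - ((a₁ : Md d F) *ᵥ w₀ + (b₁ : Md d F) *ᵥ u₁)) +
          ((a₁ : Md d F) *ᵥ w₀ + (b₁ : Md d F) *ᵥ u₁) := by abel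
      rw [h2, sf_add_right, h1, sf_add_right, (hv.2 a₁).1, (hv.2 b₁).2]
      ring
    have hlt : W' < W := by
      refine lt_of_le_of_ne hW'le ?_
      intro h
      have h1 : w₀ ∈ W' := by rw [h]; exact hw₀W
      rw [hW'mem] at h1
      apply hτ
      ext a
      have h2 := (h1.2 a).2
      have h3 := hkey' 1 a
      rw [Subalgebra.coe_one, Matrix.one_mulVec, h2, mul_one] at h3
      rw [LinearMap.zero_apply]
      linear_combination h3
    have hfr : Module.finrank F W' ≤ n := by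
      have := Submodule.finrank_lt_finrank_of_lt hlt
      omega
    obtain ⟨m, w, u, hmem, h1, h2, h3, h4⟩ := ih W' hfr hW'inv hW'nd
    have hwW' : ∀ (b : ↥K) (j : Fin m) (a : ↥K),
        sympForm d F ((b : Md d F) *ᵥ w j) ((a : Md d F) *ᵥ w₀) = 0 ∧
        sympForm d F ((b : Md d F) *ᵥ w j) ((a : Md d F) *ᵥ u₁) = 0 := fun b j a =>
      ((hW'mem _).1 (hW'inv b _ (hmem j).1)).2 a
    have huW' : ∀ (b : ↥K) (j : Fin m) (a : ↥K),
        sympForm d F ((b : Md d F) *ᵥ u j) ((a : Md d F) *ᵥ w₀) = 0 ∧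
        sympForm d F ((b : Md d F) *ᵥ u j) ((a : Md d F) *ᵥ u₁) = 0 := fun b j a =>
      ((hW'mem _).1 (hW'inv b _ (hmem j).2)).2 a
    refine ⟨m + 1, Fin.cons w₀ w, Fin.cons u₁ u, ?_, ?_, ?_, ?_, ?_⟩
    · intro j
      refine Fin.cases ?_ (fun j => ?_) j
      · exact ⟨hw₀W, hu₁W⟩
      · simp only [Fin.cons_succ]
        exact ⟨hW'le (hmem j).1, hW'le (hmem j).2⟩
    · intro a b i j
      refine Fin.cases ?_ (fun i => ?_) i <;> refine Fin.cases ?_ (fun j => ?_) j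
      · simp only [Fin.cons_zero, if_true]
        exact hkey a b
      · simp only [Fin.cons_zero, Fin.cons_succ]
        rw [if_neg (Fin.succ_ne_zero j).symm, sf_swap, (hwW' b j a).2, neg_zero]
      · simp only [Fin.cons_zero, Fin.cons_succ]
        rw [if_neg (Fin.succ_ne_zero i), (huW' a i b).1]
      · simp only [Fin.cons_succ, Fin.succ_inj]
        exact h1 a b i j
    · intro a b i j
      refine Fin.cases ?_ (fun i => ?_) i <;> refine Fin.cases ?_ (fun j => ?_) j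
      · simp only [Fin.cons_zero]
        exact darb_iso hA a b w₀
      · simp only [Fin.cons_zero, Fin.cons_succ]
        rw [sf_swap, (hwW' b j a).1, neg_zero]
      · simp only [Fin.cons_zero, Fin.cons_succ]
        exact (hwW' a i b).1
      · simp only [Fin.cons_succ]
        exact h2 a b i j
    · intro a b i j
      refine Fin.cases ?_ (fun i => ?_) i <;> refine Fin.cases ?_ (fun j => ?_) j
      · simp only [Fin.cons_zero]
        exact darb_iso hA a b u₁
      · simp only [Fin.cons_zero, Fin.cons_succ]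
        rw [sf_swap, (huW' b j a).2, neg_zero]
      · simp only [Fin.cons_zero, Fin.cons_succ]
        exact (huW' a i b).2
      · simp only [Fin.cons_succ]
        exact h3 a b i j
    · intro y hy
      obtain ⟨a₁, b₁, hy'⟩ := hdec y hy
      obtain ⟨c, c', hcc⟩ := h4 _ hy'
      refine ⟨Fin.cons a₁ c, Fin.cons b₁ c', ?_⟩
      rw [Fin.sum_univ_succ, Fin.sum_univ_succ]
      simp only [Fin.cons_zero, Fin.cons_succ]
      rw [sub_eq_iff_eq_add] at hcc
      rw [hcc]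
      abel

/-- [DARB] existence of a `K`-Darboux basis. -/
theorem pkgDarb : PkgDarb.{u} := by
  intro F _ _ d k K hA hd
  classical
  have hK := hA.fld
  obtain ⟨τ, hτ1⟩ : ∃ τ : ↥K →ₗ[F] F, τ 1 = 1 := by
    refine ⟨{ toFun := fun a => (a : Md d F) (Sum.inl ⟨0, hd⟩) (Sum.inl ⟨0, hd⟩)
              map_add' := fun a b => rfl
              map_smul' := fun s a => rfl }, ?_⟩
    show ((1 : ↥K) : Md d F) (Sum.inl ⟨0, hd⟩) (Sum.inl ⟨0, hd⟩) = 1
    rw [Subalgebra.coe_one, Matrix.one_apply_eq]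
  have hτ : τ ≠ 0 := by
    intro h
    rw [h, LinearMap.zero_apply] at hτ1
    exact zero_ne_one hτ1
  obtain ⟨m, w, u, -, h1, h2, h3, h4⟩ := darb_aux hA τ hτ
    (Module.finrank F (⊤ : Submodule F (Vd d F))) ⊤ le_rfl (fun _ _ _ => Submodule.mem_top)
    (fun w _ hw => by
      by_contra h0
      obtain ⟨w', hw'⟩ := Cfsg.Agent.Lib.Helper40.exists_sympForm_eq_one d w h0
      rw [hw w' Submodule.mem_top] at hw'
      exact zero_ne_one hw')
  have hΦ : ∀ c : Fin m ⊕ Fin m → ↥K, ∑ j, (c j : Md d F) *ᵥ (Sum.elim w u) j =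
      ∑ j, (c (Sum.inl j) : Md d F) *ᵥ w j + ∑ j, (c (Sum.inr j) : Md d F) *ᵥ u j := by
    intro c
    rw [Fintype.sum_sum_type]
    rfl
  have hUW : ∀ x y : Fin m → ↥K, sympForm d F (∑ i, (x i : Md d F) *ᵥ u i)
      (∑ j, (y j : Md d F) *ᵥ w j) = ∑ i, τ (x i * y i) := by
    intro x y
    rw [sf_sum_left]
    apply Finset.sum_congr rfl
    intro i _
    rw [sf_sum_right]
    simp_rw [h1]
    rw [Finset.sum_ite_eq]
    simp
  have hWW : ∀ x y : Fin m → ↥K, sympForm d F (∑ i, (x i : Md d F) *ᵥ w i)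
      (∑ j, (y j : Md d F) *ᵥ w j) = 0 := by
    intro x y
    rw [sf_sum_left]
    apply Finset.sum_eq_zero
    intro i _
    rw [sf_sum_right]
    apply Finset.sum_eq_zero
    intro j _
    exact h2 _ _ i j
  have hUU : ∀ x y : Fin m → ↥K, sympForm d F (∑ i, (x i : Md d F) *ᵥ u i)
      (∑ j, (y j : Md d F) *ᵥ u j) = 0 := by
    intro x y
    rw [sf_sum_left]
    apply Finset.sum_eq_zero
    intro i _
    rw [sf_sum_right]
    apply Finset.sum_eq_zero
    intro j _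
    exact h3 _ _ i j
  have hgram : ∀ c c' : Fin m ⊕ Fin m → ↥K,
      sympForm d F (∑ j, (c j : Md d F) *ᵥ (Sum.elim w u) j)
        (∑ j, (c' j : Md d F) *ᵥ (Sum.elim w u) j) =
      τ (∑ j : Fin m, (c (Sum.inr j) * c' (Sum.inl j) - c (Sum.inl j) * c' (Sum.inr j))) := by
    intro c c'
    rw [hΦ, hΦ, sf_add_left, sf_add_right, sf_add_right, hWW, hUU, hUW,
      sf_swap d (∑ i, (c (Sum.inl i) : Md d F) *ᵥ w i), hUW, map_sum, zero_add, add_zero,
      ← Finset.sum_neg_distrib, ← Finset.sum_add_distrib]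
    apply Finset.sum_congr rfl
    intro j _
    rw [map_sub, darb_comm hK (c (Sum.inl j))]
    ring
  refine ⟨m, τ, Sum.elim w u, ⟨⟨?_, ?_⟩, hgram⟩⟩
  · intro c c' hcc
    have hcc' : ∑ j, (c j : Md d F) *ᵥ (Sum.elim w u) j =
        ∑ j, (c' j : Md d F) *ᵥ (Sum.elim w u) j := hcc
    have hsingle : ∀ (i : Fin m ⊕ Fin m) (b : ↥K) (j : Fin m ⊕ Fin m),
        ((Pi.single i b : Fin m ⊕ Fin m → ↥K) j : Md d F) = if j = i then (b : Md d F) else 0 := by
      intro i b j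
      by_cases hji : j = i
      · rw [if_pos hji, hji, Pi.single_eq_same]
      · rw [if_neg hji, Pi.single_eq_of_ne hji, Subalgebra.coe_zero]
    have hg : ∀ (i : Fin m ⊕ Fin m) (b : ↥K),
        τ (∑ j : Fin m, (c (Sum.inr j) * (Pi.single i b : Fin m ⊕ Fin m → ↥K) (Sum.inl j) -
          c (Sum.inl j) * (Pi.single i b : Fin m ⊕ Fin m → ↥K) (Sum.inr j))) =
        τ (∑ j : Fin m, (c' (Sum.inr j) * (Pi.single i b : Fin m ⊕ Fin m → ↥K) (Sum.inl j) -
          c' (Sum.inl j) * (Pi.single i b : Fin m ⊕ Fin m → ↥K) (Sum.inr j))) := by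
      intro i b
      rw [← hgram, ← hgram, hcc']
    funext j
    rcases j with j | j
    · -- test with `Pi.single (inr j) b`
      have hz : c (Sum.inl j) - c' (Sum.inl j) = 0 := by
        apply darb_tau_zero hK τ hτ
        intro b
        have h := hg (Sum.inr j) b
        simp only [Pi.single_apply, Sum.inr.injEq, reduceCtorEq, if_false, mul_zero, zero_sub,
          mul_ite, Finset.sum_neg_distrib, Finset.sum_ite_eq', Finset.mem_univ, if_true, map_neg,
          neg_inj] at h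
        rw [sub_mul, map_sub, h, sub_self]
      exact sub_eq_zero.1 hz
    · have hz : c (Sum.inr j) - c' (Sum.inr j) = 0 := by
        apply darb_tau_zero hK τ hτ
        intro b
        have h := hg (Sum.inl j) b
        simp only [Pi.single_apply, Sum.inl.injEq, reduceCtorEq, if_false, mul_zero, sub_zero,
          mul_ite, Finset.sum_ite_eq', Finset.mem_univ, if_true] at h
        rw [sub_mul, map_sub, h, sub_self]
      exact sub_eq_zero.1 hz
  · intro v
    obtain ⟨c, c', hv⟩ := h4 v Submodule.mem_top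
    refine ⟨Sum.elim c c', ?_⟩
    show ∑ j, ((Sum.elim c c' : Fin m ⊕ Fin m → ↥K) j : Md d F) *ᵥ (Sum.elim w u) j = v
    rw [hΦ]
    exact hv.symm

end darb

end Cfsg.Agent.Lib.Helper4.FXSP
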